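import Cfsg.Agent.H920.ExSp

/-!
# Item (10) of S5822 from the list of S5824 (helper920)

`sp8_class_six` : given the conclusion of S5824 for the maximal subgroups of `Sp_8(F)` in the residual class.
-/

set_option autoImplicit false

namespace Cfsg.Agent.H920

open Cfsg Cfsg.Geo Matrix

theorem pRankLE_congr {d : ℕ} {T T' : Type*} [Group T] [Group T'] (e : T ≃* T') (h : PRankLE 2 d T') : PRankLE 2 d T := by
  intro A hA hA2
  have h1 := h (A.map e.toMonoidHom) ⟨⟨by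
    rintro ⟨_, x, hx, rfl⟩ ⟨_, y, hy, rfl⟩
    apply Subtype.ext
    change e x * e y = e y * e x
    rw [← map_mul, ← map_mul]
    congr 1
    have := hA.1.1 ⟨x, hx⟩ ⟨y, hy⟩
    exact congrArg Subtype.val this⟩⟩ (by
    rintro _ ⟨x, hx, rfl⟩
    change (e x) ^ 2 = 1
    rw [← map_pow, hA2 x hx, map_one])
  rwa [Subgroup.card_map_of_injective (f := e.toMonoidHom) e.injective] at h1

theorem pRankLE_mono {d d' : ℕ} (hd : d ≤ d') {T : Type*} [Group T] (h : PRankLE 2 d T) : PRankLE 2 d' T :=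
  fun A hA hA2 => (h A hA hA2).trans (Nat.pow_le_pow_right (by norm_num) hd)

/-- **Item (10) of S5822, given S5824.** -/
theorem sp8_class_six {F : Type*} [Field F] [Fintype F]
    (hlist : ∀ H : Subgroup (Matrix.GeneralLinearGroup (Fin 4 ⊕ Fin 4) F), Cfsg.Geo.IsMaximalIn (Cfsg.spGL 4 F) H →
      Cfsg.Geo.InSymplecticResidualClass H →
    ∃ (P : Subgroup (Matrix.GeneralLinearGroup (Fin 4 ⊕ Fin 4) F)) (p : ℕ), Cfsg.Geo.IsResidualCore H P ∧ p.Prime ∧ CharP F p ∧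
    ((Nonempty ((P ⧸ (Cfsg.Geo.scalars (Fin 4 ⊕ Fin 4) F).subgroupOf P) ≃* Matrix.ProjectiveSpecialLinearGroup (Fin 2) (ZMod 7)) ∧ Fintype.card F = p ∧ 5 ≤ p ∧ p ≠ 7) ∨
     (Nonempty ((P ⧸ (Cfsg.Geo.scalars (Fin 4 ⊕ Fin 4) F).subgroupOf P) ≃* alternatingGroup (Fin 6)) ∧ ((Fintype.card F = p ∧ (p % 20 = 1 ∨ p % 20 = 19 ∨ p % 20 = 9 ∨ p % 20 = 11)) ∨ (Fintype.card F = p ^ 2 ∧ p ≠ 2 ∧ p ≠ 3 ∧ (p % 5 = 2 ∨ p % 5 = 3)))) ∨
     (Nonempty ((P ⧸ (Cfsg.Geo.scalars (Fin 4 ⊕ Fin 4) F).subgroupOf P) ≃* Matrix.ProjectiveSpecialLinearGroup (Fin 2) (ZMod 17)) ∧ ((Fintype.card F = p ∧ (p % 17 = 1 ∨ p % 17 = 16 ∨ p % 17 = 2 ∨ p % 17 = 15 ∨ p % 17 = 4 ∨ p % 17 = 13 ∨ p % 17 = 8 ∨ p % 17 = 9)) ∨ (Fintype.card F = p ^ 2 ∧ (p % 17 = 3 ∨ p % 17 = 14 ∨ p % 17 = 5 ∨ p % 17 = 12 ∨ p % 17 = 6 ∨ p % 17 = 11 ∨ p % 17 = 7 ∨ p % 17 = 10)))) ∨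
     (Nonempty ((P ⧸ (Cfsg.Geo.scalars (Fin 4 ⊕ Fin 4) F).subgroupOf P) ≃* alternatingGroup (Fin 10)) ∧ Fintype.card F = 2) ∨
     (Nonempty ((P ⧸ (Cfsg.Geo.scalars (Fin 4 ⊕ Fin 4) F).subgroupOf P) ≃* Matrix.ProjectiveSpecialLinearGroup (Fin 2) F) ∧ 11 ≤ p) ∨
     ((∃ (K : Type) (_ : Field K) (_ : Fintype K), Fintype.card K = Fintype.card F ^ 3 ∧ Nonempty ((P ⧸ (Cfsg.Geo.scalars (Fin 4 ⊕ Fin 4) F).subgroupOf P) ≃* Matrix.ProjectiveSpecialLinearGroup (Fin 2) K)) ∧ Odd (Fintype.card F))))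
    (hsch : SchAll (Fin 4 ⊕ Fin 4) F) :
    ∀ (p : ℕ) (R : Subgroup (Matrix.GeneralLinearGroup (Fin 4 ⊕ Fin 4) F)), p.Prime → Odd p → Fintype.card F = p →
      Cfsg.Geo.IsSymplecticTypeGroup 2 R → Cfsg.Geo.ActsAbsolutelyIrreducibly (Cfsg.Geo.matrixSet R) →
      R ≤ Cfsg.spGL 4 F → Nat.card R = 128 → Nat.card (Subgroup.center R) = 2 → Cfsg.Geo.IsOfMinusType 3 R →
      Cfsg.Geo.IsMaximalIn (Cfsg.spGL 4 F) (Cfsg.Geo.subgroupNormalizer R ⊓ Cfsg.spGL 4 F) := by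
  intro p R hp hpo hF hR habs hRD hcard hZ _
  refine maximal_Sp_of_residual (k := 3) hp hpo hF (le_refl 3) hR habs hRD (by rw [hcard]; norm_num) hZ hsch ?_
  intro X hX hXr
  obtain ⟨P, p', hP, hp', hchar, h⟩ := hlist X hX hXr
  refine ⟨P, hP, ?_⟩
  have h2 : (2 : F) ≠ 0 := by
    intro h0
    have h1 : ((2 : ℕ) : F) = 0 := by exact_mod_cast h0
    have h3 := (CharP.cast_eq_zero_iff F p' 2).1 h1
    have h4 := (Nat.prime_dvd_prime_iff_eq hp' Nat.prime_two).1 h3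
    obtain ⟨n, -, hn⟩ := FiniteField.card F p'
    rw [hF, h4] at hn
    have h5 : 2 ∣ p := by rw [hn]; exact dvd_pow_self 2 n.2.ne'
    obtain ⟨j, hj⟩ := hpo
    omega
  have h17 : Fact (Nat.Prime 17) := ⟨by norm_num⟩
  have h7 : Fact (Nat.Prime 7) := ⟨by norm_num⟩
  rcases h with ⟨⟨e⟩, -⟩ | ⟨⟨e⟩, -⟩ | ⟨⟨e⟩, -⟩ | ⟨-, h⟩ | ⟨⟨e⟩, -⟩ | ⟨⟨K, _, _, hK, ⟨e⟩⟩, hodd⟩
  · refine pRankLE_congr e (pRankLE_mono (by norm_num) (TwoUniq.PSLRank.pRankLE (F := ZMod 7) ?_))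
    intro h0
    have h1 : ((2 : ℕ) : ZMod 7) = 0 := by exact_mod_cast h0
    rw [ZMod.natCast_eq_zero_iff] at h1
    omega
  · refine pRankLE_congr e (pRankLE_of_card ?_)
    rw [nat_card_alternatingGroup, Nat.card_eq_fintype_card, Fintype.card_fin]
    decide
  · refine pRankLE_congr e (pRankLE_mono (by norm_num) (TwoUniq.PSLRank.pRankLE (F := ZMod 17) ?_))
    intro h0
    have h1 : ((2 : ℕ) : ZMod 17) = 0 := by exact_mod_cast h0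
    rw [ZMod.natCast_eq_zero_iff] at h1
    omega
  · rw [h] at hF
    rw [← hF] at hpo
    exact absurd hpo (by decide)
  · exact pRankLE_congr e (pRankLE_mono (by norm_num) (TwoUniq.PSLRank.pRankLE h2))
  · refine pRankLE_congr e (pRankLE_mono (by norm_num) (TwoUniq.PSLRank.pRankLE (F := K) ?_))
    intro h0
    obtain ⟨p'', hp''⟩ := CharP.exists K
    obtain ⟨n, hp3, hn⟩ := FiniteField.card K p''
    have h1 : ((2 : ℕ) : K) = 0 := by exact_mod_cast h0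
    have h3 := (CharP.cast_eq_zero_iff K p'' 2).1 h1
    have h4 := (Nat.prime_dvd_prime_iff_eq hp3 Nat.prime_two).1 h3
    rw [hK, h4] at hn
    have h5 : Even (Fintype.card F ^ 3) := by rw [hn]; exact (Nat.even_pow.2 ⟨even_two, n.2.ne'⟩)
    have h6 := Odd.pow (n := 3) hodd
    exact (Nat.not_even_iff_odd.2 h6) h5

end Cfsg.Agent.H920
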