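import Cfsg.Agent.H920.CsFinal

/-!
# Class 6: the almost simple overgroups may be taken maximal (helper920)

* `core_unique` : a group has at most one residual core;
* `isMaximalIn_of_maximal` : it is enough to consider the maximal subgroups containing `N`;
* `IsOver.dvd_card` : `r ^ (2 k) |Sp_{2k}(r)|` divides the order of the simple quotient;
* `maximal_SL_of_residual`, `maximal_SU_of_residual` : class 6 from the list of the residual maximal subgroups.
-/

set_option autoImplicit false

namespace Cfsg.Agent.H920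

open Cfsg Cfsg.Geo Matrix
open scoped commutatorElement

variable {ι : Type} [Fintype ι] [DecidableEq ι] {F : Type*} [Field F]

theorem core_le {X P P' : Subgroup (GL ι F)} (h : IsResidualCore X P) (h' : IsResidualCore X P') : P ≤ P' := by
  classical
  -- the intersection modulo scalars
  let N : Subgroup P := (P' ⊓ P).subgroupOf P
  have hN : N.Normal := by
    refine ⟨fun n hn g => ?_⟩
    rw [Subgroup.mem_subgroupOf] at hn ⊢
    refine ⟨?_, ?_⟩
    · rw [Subgroup.coe_mul, Subgroup.coe_mul, Subgroup.coe_inv]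
      exact h'.normal g (h.le g.2) _ hn.1
    · exact (g * n * g⁻¹).2
  haveI := h.simple
  let π : P →* P ⧸ (scalars ι F).subgroupOf P := QuotientGroup.mk' _
  have hNn : (N.map π).Normal := hN.map π (QuotientGroup.mk'_surjective _)
  rcases hNn.eq_bot_or_eq_top with hbot | htop
  · -- `P'` is centralised
    exfalso
    apply h'.nonabelian
    have hsc : ∀ x ∈ P', x ∈ scalars ι F := by
      intro x hx
      refine h.centralizer_scalar x (h'.le hx) ?_
      intro y hy
      have h1 : x * y * x⁻¹ * y⁻¹ ∈ P := P.mul_mem (h.normal x (h'.le hx) y hy) (P.inv_mem hy)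
      have h2 : x * y * x⁻¹ * y⁻¹ ∈ P' := by
        have := h'.normal y (h.le hy) x⁻¹ (P'.inv_mem hx)
        have h3 := P'.mul_mem hx this
        have h4 : x * (y * x⁻¹ * y⁻¹) = x * y * x⁻¹ * y⁻¹ := by group
        rwa [h4] at h3
      have h3 : π ⟨_, h1⟩ ∈ N.map π := ⟨⟨_, h1⟩, ⟨h2, h1⟩, rfl⟩
      rw [hbot, Subgroup.mem_bot] at h3
      exact (QuotientGroup.eq_one_iff (⟨_, h1⟩ : P)).1 h3
    refine ⟨⟨fun a b => ?_⟩⟩
    obtain ⟨a, rfl⟩ := QuotientGroup.mk_surjective a
    obtain ⟨b, rfl⟩ := QuotientGroup.mk_surjective b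
    have ha : ((a : P') : P' ⧸ (scalars ι F).subgroupOf P') = 1 := (QuotientGroup.eq_one_iff _).2 (hsc a a.2)
    have hb : ((b : P') : P' ⧸ (scalars ι F).subgroupOf P') = 1 := (QuotientGroup.eq_one_iff _).2 (hsc b b.2)
    rw [ha, hb]
  · -- `P = (P ∩ P') (scalars)`
    have hex : ∀ x ∈ P, ∃ y ∈ P' ⊓ P, y⁻¹ * x ∈ scalars ι F := by
      intro x hx
      have h1 : π ⟨x, hx⟩ ∈ N.map π := by rw [htop]; trivial
      obtain ⟨y, hy, hyx⟩ := h1
      exact ⟨y, hy, by
        have := QuotientGroup.eq.1 hyx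
        exact this⟩
    have hle : ⁅P, P⁆ ≤ P' := by
      rw [Subgroup.commutator_le]
      intro x hx y hy
      obtain ⟨x', hx', hxx⟩ := hex x hx
      obtain ⟨y', hy', hyy⟩ := hex y hy
      have hcx := fun z : GL ι F => scalars_comm hxx z
      have hcy := fun z : GL ι F => scalars_comm hyy z
      have hx1 : x = x' * (x'⁻¹ * x) := by group
      have hy1 : y = y' * (y'⁻¹ * y) := by group
      have h1 : ⁅x, y⁆ = ⁅x', y'⁆ := by
        set s := x'⁻¹ * x with hs
        set t := y'⁻¹ * y with ht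
        rw [commutatorElement_def, commutatorElement_def, hx1, hy1]
        have e1 : x' * s * (y' * t) * (x' * s)⁻¹ * (y' * t)⁻¹ = x' * (s * (y' * t)) * (s⁻¹ * x'⁻¹) * (t⁻¹ * y'⁻¹) := by
          group
        rw [e1, hcx (y' * t)]
        have e2 : x' * (y' * t * s) * (s⁻¹ * x'⁻¹) * (t⁻¹ * y'⁻¹) = x' * y' * (t * x'⁻¹) * (t⁻¹ * y'⁻¹) := by group
        rw [e2, hcy x'⁻¹]
        group
      rw [h1]
      exact P'.mul_mem (P'.mul_mem (P'.mul_mem hx'.1 hy'.1) (P'.inv_mem hx'.1)) (P'.inv_mem hy'.1)
    rw [h.perfect] at hle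
    exact hle

theorem core_unique {X P P' : Subgroup (GL ι F)} (h : IsResidualCore X P) (h' : IsResidualCore X P') : P = P' :=
  le_antisymm (core_le h h') (core_le h' h)

/-- It is enough to consider the maximal subgroups containing `N`. -/
theorem isMaximalIn_of_maximal {G : Type*} [Group G] [Finite G] {K N : Subgroup G} (hNK : N < K)
    (h : ∀ X, IsMaximalIn K X → N ≤ X → X ≤ N) : IsMaximalIn K N := by
  refine ⟨hNK, ?_⟩
  intro M hNM hMK
  by_cases hM : M = K
  · exact Or.inr hM
  left
  haveI : Finite (Subgroup G) := inferInstance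
  obtain ⟨X, ⟨hX1, hX2⟩, hXmax⟩ := Set.Finite.exists_maximal (s := {X : Subgroup G | M ≤ X ∧ X < K}) (Set.toFinite _)
    ⟨M, le_refl M, lt_of_le_of_ne hMK hM⟩
  have hX : IsMaximalIn K X := by
    refine ⟨hX2, ?_⟩
    intro Z hXZ hZK
    by_cases hZ : Z = K
    · exact Or.inr hZ
    · left
      exact le_antisymm (hXmax ⟨hX1.trans hXZ, lt_of_le_of_ne hZK hZ⟩ hXZ) hXZ
  exact le_antisymm (hX1.trans (h X hX (hNM.trans hX1))) hNM

section Main

variable {R : Subgroup (GL ι F)} {r k : ℕ}

theorem IsOver.dvd_card [Finite F] [Nonempty ι] [Fact r.Prime] {C : Coord R r k} {Y X P : Subgroup (GL ι F)} (h : IsOver C Y X P) :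
    r ^ (2 * k) * Nat.card (Matrix.symplecticGroup (Fin k) (ZMod r)) ∣ Nat.card (P ⧸ (scalars ι F).subgroupOf P) := by
  rw [← h.core.card_quotient h.habs]
  -- the embedding
  let f : Y →* P ⧸ (scalars ι F).subgroupOf P := (QuotientGroup.mk' _).comp (Subgroup.inclusion h.le)
  have hker : f.ker = (scalars ι F).subgroupOf Y := by
    ext y
    rw [MonoidHom.mem_ker, Subgroup.mem_subgroupOf]
    exact QuotientGroup.eq_one_iff _
  rw [Nat.card_congr (QuotientGroup.quotientMulEquivOfEq hker.symm).toEquiv,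
    Nat.card_congr (QuotientGroup.quotientKerEquivRange f).toEquiv]
  exact Subgroup.card_subgroup_dvd_card _

/-- **The reduction to the maximal overgroups.** -/
theorem isMaximalIn_of_over' [Fintype F] [Nonempty ι] (hR : IsSymplecticTypeGroup r R)
    (habs : ActsAbsolutelyIrreducibly (matrixSet R)) (ht : IsType r k R) (h5 : 5 ≤ r ^ k) {p e : ℕ}
    (hmin : IsMinimalFieldFor (Nat.card (Subgroup.center R)) p e F) {K : Subgroup (GL ι F)}
    (hsch : SchAll ι F) {C : Coord R r k} {Y : Subgroup (GL ι F)} (hY : C.Core Y) (hYK : Y ≤ K)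
    (htv : ∃ t ∈ K, IsTv t) (hD : ∀ X P : Subgroup (GL ι F), IsMaximalIn K X → IsOver C Y X P → False) :
    IsMaximalIn K (subgroupNormalizer R ⊓ K) := by
  have hp : Fact r.Prime := ⟨hR.prime⟩
  have hcard := card_of_type hR habs ht
  have hRY := hY.le_core hR habs ht h5
  have h3 : 3 ≤ Nat.card (Subgroup.center R) := by
    rcases ht with ⟨hodd, hZ, -⟩ | ⟨-, hZ, -⟩
    · rw [hZ]
      have h2 := hR.prime.two_le
      rcases Nat.lt_or_ge r 3 with h | h
      · have : r = 2 := by omega
        rw [this] at hodd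
        exact absurd hodd (by decide)
      · exact h
    · rw [hZ]; norm_num
  have hfin : Finite (GL ι F) := inferInstance
  refine isMaximalIn_of_maximal (lt_of_le_of_ne inf_le_right ?_) ?_
  · intro h
    obtain ⟨t, htK, ht'⟩ := htv
    rw [← h] at htK
    exact C.false_of_transvection (by rw [hcard]; exact h5) habs ht' htK.1
  · intro X hX hNX
    have hYX : Y ≤ X := (le_inf hY.le hYK).trans hNX
    rcases hY.overgroup hR hRY habs ht h5 hYX with h | ⟨P, hP⟩
    · exact le_inf h hX.1.le
    · exfalso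
      have hYP : Y ≤ P := H878.perfect_le_core hP hYX hY.perfect (hsch P hP.simple hP.nonabelian)
      exact hD X P hX
        { hR := hR, habs := habs, type := ht, five := h5, core := hY, card_eq := card_of_type hR habs ht
          isCore := hP.isResidualCore (not_realisable_of_minimal hR habs hmin (hRY.trans hYP))
          le := hYP, R_le := hRY.trans hYP
          no_symplectic := not_fixes_symplectic hR habs h3 (hRY.trans hYP)
          no_quadratic := not_fixes_quadratic hR habs h3 (hRY.trans hYP) }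

/-- The property of the list of the simple quotients which excludes class 6: for each residual core `P` of `X` the
order of the simple quotient is not divisible by `r ^ (2 k) |Sp_{2k}(r)|`. -/
def Excl (r : ℕ) (X : Subgroup (GL ι F)) : Prop :=
  ∃ P, IsResidualCore X P ∧ ∀ k : ℕ, Fintype.card ι = r ^ k →
    ¬ r ^ (2 * k) * Nat.card (Matrix.symplecticGroup (Fin k) (ZMod r)) ∣ Nat.card (P ⧸ (scalars ι F).subgroupOf P)

theorem IsOver.false_of_excl [Finite F] [Nonempty ι] {C : Coord R r k} {Y X P : Subgroup (GL ι F)}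
    (h : IsOver C Y X P) (hX : Excl r X) : False := by
  have hp : Fact r.Prime := ⟨h.hR.prime⟩
  obtain ⟨P', hP', hdvd⟩ := hX
  obtain rfl := core_unique h.isCore hP'
  exact hdvd k h.card_eq h.dvd_card

/-- **Class 6 in `SL` from the list of the residual maximal subgroups.** -/
theorem maximal_SL_of_residual [Fintype F] (hR : IsLinearSymplecticTypeData r R) (h5 : 5 ≤ Fintype.card ι)
    (hsch : SchAll ι F)
    (hres : ∀ X : Subgroup (GL ι F), IsMaximalIn (specialLinear ι F) X → InLinearResidualClass X → Excl r X) :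
    IsMaximalIn (specialLinear ι F) (subgroupNormalizer R ⊓ specialLinear ι F) := by
  have hne : Nonempty ι := Fintype.card_pos_iff.1 (by omega)
  obtain ⟨p, e, hrp, hmin, h⟩ := hR.field
  obtain ⟨i, j, hij⟩ : ∃ i j : ι, i ≠ j := by
    have h1 : 1 < Fintype.card ι := by omega
    obtain ⟨i, j, hij⟩ := Fintype.exists_pair_of_one_lt_card h1
    exact ⟨i, j, hij⟩
  have key : ∀ k : ℕ, IsType r k R → Odd e → IsMaximalIn (specialLinear ι F) (subgroupNormalizer R ⊓ specialLinear ι F) := by
    intro k ht he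
    have hcard := card_of_type hR.symplecticType hR.absIrred ht
    rw [hcard] at h5
    obtain ⟨C, Y, hY⟩ := exists_coord_core hR.symplecticType hR.absIrred ht h5
    refine isMaximalIn_of_over' hR.symplecticType hR.absIrred ht h5 hmin hsch hY (perfect_le_specialLinear hY.perfect)
      (exists_tv_SL hij) ?_
    intro X P hX hP
    have := hmin.2.1
    have hu := not_fixes_unitary hmin.1 hmin.2.2.1 he (ι := ι) (P := P)
    exact hP.false_of_excl (hres X hX ⟨P, hP.isCore, hP.no_quadratic, hP.no_symplectic, hu⟩)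
  rcases h with ⟨hodd, he, hZ, m, hm, hcR⟩ | ⟨h2, he, hZ, h4, m, hcR⟩ | ⟨-, -, h2, -⟩
  · exact key m (Or.inl ⟨hodd, hZ, hcR⟩) he
  · exact key m (Or.inr ⟨h2, hZ, hcR⟩) (by rw [he]; exact odd_one)
  · omega

end Main

section SU

variable {n q : ℕ} {R : Subgroup (GL (Fin n) F)} {r k : ℕ}

/-- **Class 6 in `SU` from the list of the residual maximal subgroups.** -/
theorem maximal_SU_of_residual [Fintype F] (hF : Fintype.card F = q ^ 2) (h5 : 5 ≤ n) (hR : IsSymplecticTypeGroup r R)
    (hirr : ActsAbsolutelyIrreducibly (matrixSet R)) (hRD : R ≤ GU n F q) {p e : ℕ}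
    (hmin : IsMinimalFieldFor (Nat.card (Subgroup.center R)) p e F)
    (htype : IsType r k R) (hsch : SchAll (Fin n) F)
    (hres : ∀ X : Subgroup (GL (Fin n) F), IsMaximalIn (GU n F q ⊓ specialLinear (Fin n) F) X →
      InUnitaryResidualClass X → Excl r X) :
    IsMaximalIn (GU n F q ⊓ specialLinear (Fin n) F)
      (subgroupNormalizer R ⊓ (GU n F q ⊓ specialLinear (Fin n) F)) := by
  have hne : Nonempty (Fin n) := ⟨⟨0, by omega⟩⟩
  have hij : (⟨0, by omega⟩ : Fin n) ≠ ⟨1, by omega⟩ := by
    intro h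
    have := congrArg Fin.val h
    simp at this
  have hcard := card_of_type hR hirr htype
  rw [Fintype.card_fin] at hcard
  rw [hcard] at h5
  obtain ⟨C, Y, hY⟩ := exists_coord_core hR hirr htype h5
  refine isMaximalIn_of_over' hR hirr htype h5 hmin hsch hY (hY.le_SU hF (by omega) hirr hRD) (exists_tv_SU hF hij) ?_
  intro X P hX hP
  exact hP.false_of_excl (hres X hX ⟨P, hP.isCore, hP.no_quadratic, hP.no_symplectic⟩)

end SU

end Cfsg.Agent.H920
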