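import Cfsg.Agent.H920.CsLow
import Cfsg.Agent.LieClassical.SympCount
import Cfsg.Agent.CTwoTab.Exc

/-!
# Class 6 in low dimensions: orders of the simple quotients (helper920)

* `Excl.of_pow` : it is enough that `r ^ (k ^ 2 + 2 k)` does not divide the order;
* `excl_eight` : `L_3(4)` in dimension 8.
-/

set_option autoImplicit false

namespace Cfsg.Agent.H920

open Cfsg Cfsg.Geo Matrix

variable {ι : Type} [Fintype ι] [DecidableEq ι] {F : Type*} [Field F]

theorem Excl.of_pow {r k : ℕ} (hr : r.Prime) (hk : Fintype.card ι = r ^ k) {X P : Subgroup (GL ι F)}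
    (hP : IsResidualCore X P) {N : ℕ} (hN : Nat.card (P ⧸ (scalars ι F).subgroupOf P) = N)
    (h : ¬ r ^ (k ^ 2 + 2 * k) ∣ N) : Excl r X := by
  refine ⟨P, hP, ?_⟩
  intro k' hk' hdvd
  haveI : Fact r.Prime := ⟨hr⟩
  obtain rfl : k' = k := Nat.pow_right_injective hr.two_le (hk'.symm.trans hk)
  apply h
  rw [hN, LieClassical.SympCount.card_symplecticGroup, ZMod.card, ← mul_assoc, ← pow_add] at hdvd
  rw [add_comm]
  exact (dvd_mul_right _ _).trans hdvd

theorem excl_eight {X P : Subgroup (GL (Fin 8) F)} (hP : IsResidualCore X P)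
    (h : ∃ (K : Type) (_ : Field K) (_ : Fintype K), Fintype.card K = 4 ∧
      Nonempty ((P ⧸ (scalars (Fin 8) F).subgroupOf P) ≃* Matrix.ProjectiveSpecialLinearGroup (Fin 3) K)) :
    Excl 2 X := by
  obtain ⟨K, _, _, hK, ⟨e⟩⟩ := h
  refine Excl.of_pow (k := 3) Nat.prime_two rfl hP ((Nat.card_congr e.toEquiv).trans (CTwoTab.card_PSL_three K hK)) ?_
  norm_num

end Cfsg.Agent.H920
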