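import Cfsg.Agent.H920.CsMem

/-!
# Lemma Min for arbitrary fields (helper920)

`D : Aff r k Γ`, `K` a field in which `r ≠ 0`, `τ : Γ → GL κ K` multiplicative up to scalars, `τ (D.x v₀)` not scalar.
* `Aff.min` : `r ^ k ∣ card κ`, or `r` odd and `r ^ (2 k) - 1 ≤ card κ`, or `r = 2` and
  `2 (2 ^ (2 k) - 1) ≤ card κ (card κ - 1)`;
* `Aff.pow_le_card` : `r ^ k ≤ card κ`;
* `Aff.linear` : for a homomorphism `ρ : Γ →* GL κ K`, `ρ (D.x v₀) ≠ 1`: `r ^ (2 k) - 1 ≤ card κ`;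
* `Coord.Core.min`, `Coord.Core.pow_le_card`, `Coord.Core.linear` : the same for `Y`.
-/

set_option autoImplicit false

namespace Cfsg.Agent.H920

open Cfsg Cfsg.Geo Matrix Cfsg.Agent.ClassicalGeometry.SympBasic
open scoped commutatorElement

section Aff

variable {κ : Type} [Fintype κ] [DecidableEq κ] {K : Type*} [Field K] {Γ : Type*} [Group Γ] {r k : ℕ}

omit [Fintype κ] in
theorem smul_one_of_map {L : Type*} [Field L] [Nonempty κ] (f : K →+* L) {A : Matrix κ κ K} {c : L}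
    (h : A.map f = c • (1 : Matrix κ κ L)) : ∃ d : K, A = d • (1 : Matrix κ κ K) := by
  obtain ⟨i⟩ := (inferInstance : Nonempty κ)
  have hij : ∀ a b, f (A a b) = if a = b then c else 0 := by
    intro a b
    have := congrFun (congrFun h a) b
    rw [Matrix.map_apply, Matrix.smul_apply, Matrix.one_apply, smul_eq_mul, mul_ite, mul_one, mul_zero] at this
    exact this
  refine ⟨A i i, ?_⟩
  ext a b
  apply f.injective
  rw [hij, Matrix.smul_apply, Matrix.one_apply, smul_eq_mul, mul_ite, mul_one, mul_zero]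
  split_ifs
  · rw [hij, if_pos rfl]
  · rw [map_zero]

theorem IsProj.map {L : Type*} [Field L] (f : K →+* L) {τ : Γ → GL κ K} (h : IsProj τ) :
    IsProj (fun g => Matrix.GeneralLinearGroup.map f (τ g)) := by
  intro a b
  obtain ⟨c, hc, h1⟩ := h a b
  refine ⟨f c, (map_ne_zero f).2 hc, ?_⟩
  have h2 : ∀ g : GL κ K, ((Matrix.GeneralLinearGroup.map f g : GL κ L) : Matrix κ κ L) =
      (g : Matrix κ κ K).map f := fun g => rfl
  rw [h2, h2, h2, h1, ← Matrix.map_mul]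
  ext i j
  rw [Matrix.map_apply, Matrix.smul_apply, Matrix.smul_apply, Matrix.map_apply, smul_eq_mul, smul_eq_mul, _root_.map_mul]

variable [Nonempty κ] (D : Aff r k Γ)

/-- **Lemma Min.** -/
theorem Aff.min [hp : Fact r.Prime] (hrK : (r : K) ≠ 0) {τ : Γ → GL κ K} (hτ : IsProj τ) {v₀ : Vec r k}
    (hne : ∀ c : K, (τ (D.x v₀) : Matrix κ κ K) ≠ c • (1 : Matrix κ κ K)) :
    r ^ k ∣ Fintype.card κ ∨ (Odd r ∧ r ^ (2 * k) - 1 ≤ Fintype.card κ) ∨
      (r = 2 ∧ 2 * (2 ^ (2 * k) - 1) ≤ Fintype.card κ * (Fintype.card κ - 1)) := by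
  let L := AlgebraicClosure K
  let f : K →+* L := algebraMap K L
  have hrL : (r : L) ≠ 0 := by
    intro h
    apply hrK
    apply f.injective
    rw [map_natCast, h, map_zero]
  let τ' : Γ → GL κ L := fun g => Matrix.GeneralLinearGroup.map f (τ g)
  have hτ' : IsProj τ' := hτ.map f
  have hne' : ∀ c : L, (τ' (D.x v₀) : Matrix κ κ L) ≠ c • (1 : Matrix κ κ L) := by
    intro c hc
    obtain ⟨d, hd⟩ := smul_one_of_map f hc
    exact hne d hd
  by_cases hcomm : ∀ v w, (τ' (D.x v) : Matrix κ κ L) * (τ' (D.x w) : Matrix κ κ L) =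
      (τ' (D.x w) : Matrix κ κ L) * (τ' (D.x v) : Matrix κ κ L)
  · rcases hp.out.eq_two_or_odd' with rfl | hodd
    · right; right
      exact ⟨rfl, Aff.two_mul_le (by exact_mod_cast hrL) hτ' hcomm hne'⟩
    · right; left
      exact ⟨hodd, D.sq_sub_one_le hodd hrL hτ' hcomm hne'⟩
  · left
    push Not at hcomm
    obtain ⟨v, w, h⟩ := hcomm
    exact D.pow_dvd_card hrL hτ' h

omit [Nonempty κ] in
theorem le_of_two_mul_le {n m : ℕ} (h2 : 2 ≤ n) (h : 2 * (n ^ 2 - 1) ≤ m * (m - 1)) : n ≤ m := by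
  by_contra hlt
  push Not at hlt
  have h1 : m * (m - 1) ≤ n * (n - 1) := Nat.mul_le_mul hlt.le (Nat.sub_le_sub_right hlt.le 1)
  obtain ⟨a, rfl⟩ := Nat.exists_eq_add_of_le h2
  have h3 : (2 + a) * (2 + a - 1) = (2 + a) * (1 + a) := by congr 1; omega
  rw [h3] at h1
  have h4 : (2 + a) ^ 2 - 1 = (1 + a) * (3 + a) := by
    rw [Nat.sub_eq_iff_eq_add (Nat.one_le_pow _ _ (by omega))]; ring
  rw [h4] at h
  nlinarith

theorem Aff.pow_le_card [hp : Fact r.Prime] (hk : 1 ≤ k) (hrK : (r : K) ≠ 0) {τ : Γ → GL κ K} (hτ : IsProj τ)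
    {v₀ : Vec r k} (hne : ∀ c : K, (τ (D.x v₀) : Matrix κ κ K) ≠ c • (1 : Matrix κ κ K)) :
    r ^ k ≤ Fintype.card κ := by
  have h2 : 2 ≤ r ^ k := by
    calc 2 ≤ r := hp.out.two_le
      _ = r ^ 1 := (pow_one r).symm
      _ ≤ r ^ k := Nat.pow_le_pow_right hp.out.pos hk
  rcases D.min hrK hτ hne with h | ⟨-, h⟩ | ⟨rfl, h⟩
  · exact Nat.le_of_dvd Fintype.card_pos h
  · refine le_trans ?_ h
    rw [mul_comm 2 k, pow_mul]
    have : r ^ k + 1 ≤ (r ^ k) ^ 2 := by nlinarith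
    omega
  · apply le_of_two_mul_le h2
    rw [← pow_mul, mul_comm k 2]
    exact h

omit [Nonempty κ] in
/-- An equivariant homomorphism `v ↦ M v`, not trivial: all non-trivial weights occur. -/
theorem Aff.sq_sub_one_le_of_equivariant [IsAlgClosed K] [hp : Fact r.Prime] (hrK : (r : K) ≠ 0)
    {τ : Γ → GL κ K} {M : Vec r k → Matrix κ κ K} (hadd : ∀ v w, M (v + w) = M v * M w) (hone : M 0 = 1)
    (hequi : ∀ (g : Γ) (A : Matrix (Fin k ⊕ Fin k) (Fin k ⊕ Fin k) (ZMod r)), (∀ v, g * D.x v * g⁻¹ = D.x (A *ᵥ v)) →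
        ∀ v, (τ g : Matrix κ κ K) * M v = M (A *ᵥ v) * (τ g : Matrix κ κ K))
    {v₀ : Vec r k} (hne : M v₀ ≠ 1) : r ^ (2 * k) - 1 ≤ Fintype.card κ := by
  classical
  obtain ⟨χ₀, hχ₀⟩ := exists_addChar (K := K) hp.out hrK
  obtain ⟨χ, hχ, hχ1⟩ : ∃ χ, IsWt M χ ∧ χ ≠ fun _ => 1 := by
    by_contra hcon
    push Not at hcon
    have h2 := eq_smul_of_unique hrK hadd hone hcon v₀
    rw [one_smul] at h2
    exact hne h2
  obtain ⟨w₀, hw₀⟩ := exists_form_of_wt hχ₀ hadd hone hχ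
  have hw₀0 : w₀ ≠ 0 := by
    rintro rfl
    apply hχ1
    funext v
    rw [hw₀, sympForm_zero_left, AddChar.map_zero_eq_one]
  obtain ⟨u, hu0, hu⟩ := hχ
  have hall : ∀ w : Vec r k, w ≠ 0 → IsWt M (fun v => χ₀ (sympForm k (ZMod r) w v)) := by
    intro w hw
    obtain ⟨A, -, hA⟩ := exists_transvGroup_mulVec_eq hw₀0 hw
    obtain ⟨g, hg⟩ := D.act _ A.2
    refine ⟨(τ g : Matrix κ κ K) *ᵥ u, ?_, ?_⟩
    · intro h0
      apply hu0
      have h1 : (((τ g)⁻¹ : GL κ K) : Matrix κ κ K) *ᵥ ((τ g : Matrix κ κ K) *ᵥ u) = 0 := by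
        rw [h0, Matrix.mulVec_zero]
      rwa [Matrix.mulVec_mulVec, Units.inv_mul, Matrix.one_mulVec] at h1
    · intro v
      have h1 : (A : Matrix (Fin k ⊕ Fin k) (Fin k ⊕ Fin k) (ZMod r)) *ᵥ
          (((A⁻¹ : Matrix.symplecticGroup (Fin k) (ZMod r)) : Matrix (Fin k ⊕ Fin k) (Fin k ⊕ Fin k) (ZMod r)) *ᵥ v) =
          v := by
        rw [Matrix.mulVec_mulVec, ← Submonoid.coe_mul, mul_inv_cancel, Submonoid.coe_one, Matrix.one_mulVec]
      have h2 := hequi g _ hg (((A⁻¹ : Matrix.symplecticGroup (Fin k) (ZMod r)) :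
        Matrix (Fin k ⊕ Fin k) (Fin k ⊕ Fin k) (ZMod r)) *ᵥ v)
      rw [h1] at h2
      rw [Matrix.mulVec_mulVec, ← h2, ← Matrix.mulVec_mulVec, hu, Matrix.mulVec_smul, hw₀]
      congr 2
      rw [← sympForm_mulVec A.2 w₀, hA, h1]
  have h1 := card_le_of_wt hχ₀ (Finset.univ.erase (0 : Vec r k)) (fun w hw => hall w (Finset.ne_of_mem_erase hw))
  rwa [Finset.card_erase_of_mem (Finset.mem_univ _), Finset.card_univ, card_vec] at h1

omit [Nonempty κ] in
/-- **Linear representations.** -/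
theorem Aff.linear [hp : Fact r.Prime] (hrK : (r : K) ≠ 0) (ρ : Γ →* GL κ K) {v₀ : Vec r k}
    (hne : ρ (D.x v₀) ≠ 1) : r ^ (2 * k) - 1 ≤ Fintype.card κ := by
  let L := AlgebraicClosure K
  let f : K →+* L := algebraMap K L
  have hrL : (r : L) ≠ 0 := by
    intro h
    apply hrK
    apply f.injective
    rw [map_natCast, h, map_zero]
  let τ : Γ →* GL κ L := (Matrix.GeneralLinearGroup.map f).comp ρ
  refine D.sq_sub_one_le_of_equivariant hrL (τ := τ) (M := fun v => (τ (D.x v) : Matrix κ κ L)) ?_ ?_ ?_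
    (v₀ := v₀) ?_
  · intro v w
    rw [D.add, map_mul, Units.val_mul]
  · rw [D.x_zero, map_one, Units.val_one]
  · intro g A hg v
    rw [← hg, ← Units.val_mul, ← Units.val_mul, ← map_mul, ← map_mul, inv_mul_cancel_right]
  · intro h
    apply hne
    apply Units.ext
    ext i j
    have h1 := congrFun (congrFun h i) j
    apply f.injective
    have h2 : ((τ (D.x v₀) : GL κ L) : Matrix κ κ L) i j = f ((ρ (D.x v₀) : Matrix κ κ K) i j) := rfl
    rw [← h2, h1, Units.val_one, Matrix.one_apply, Matrix.one_apply]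
    split_ifs <;> simp

end Aff

section Core

variable {ι : Type} [Fintype ι] [DecidableEq ι] {F : Type*} [Field F] {R : Subgroup (GL ι F)} {r k : ℕ}
variable {C : Coord R r k} {Y : Subgroup (GL ι F)}
variable {κ : Type} [Fintype κ] [DecidableEq κ] [Nonempty κ] {K : Type*} [Field K]

/-- Descent of a projective representation of `Y` to `Y` modulo scalars. -/
theorem exists_descent {τ : Y → GL κ K} (hτ : IsProj τ)
    (hs : ∀ y : Y, (y : GL ι F) ∈ scalars ι F → ∃ c : K, (τ y : Matrix κ κ K) = c • (1 : Matrix κ κ K)) :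
    ∃ τ' : (Y ⧸ (scalars ι F).subgroupOf Y) → GL κ K, IsProj τ' ∧
      ∀ y : Y, ∃ c : K, c ≠ 0 ∧ (τ y : Matrix κ κ K) = c • (τ' (QuotientGroup.mk y) : Matrix κ κ K) := by
  let τ' : (Y ⧸ (scalars ι F).subgroupOf Y) → GL κ K := fun g => τ (Quotient.out g)
  have hne : ∀ (g : GL κ K) (c : K), (g : Matrix κ κ K) = c • (1 : Matrix κ κ K) → c ≠ 0 := by
    rintro g c h rfl
    rw [zero_smul] at h
    exact Units.ne_zero g h
  have key : ∀ y y' : Y, (QuotientGroup.mk y : Y ⧸ (scalars ι F).subgroupOf Y) = QuotientGroup.mk y' →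
      ∃ c : K, c ≠ 0 ∧ (τ y : Matrix κ κ K) = c • (τ y' : Matrix κ κ K) := by
    intro y y' h
    have h1 : ((y'⁻¹ * y : Y) : GL ι F) ∈ scalars ι F := by
      have := QuotientGroup.eq.1 h.symm
      exact this
    obtain ⟨c, hc⟩ := hs _ h1
    obtain ⟨d, hd, h2⟩ := hτ y' (y'⁻¹ * y)
    rw [mul_inv_cancel_left, hc, Matrix.mul_smul, Matrix.mul_one, smul_smul] at h2
    exact ⟨d * c, mul_ne_zero hd (hne _ _ hc), h2⟩
  have hout : ∀ g : Y ⧸ (scalars ι F).subgroupOf Y, QuotientGroup.mk (Quotient.out g) = g := fun g =>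
    QuotientGroup.out_eq' g
  refine ⟨τ', ?_, ?_⟩
  · intro a b
    obtain ⟨c, hc, h1⟩ := key (Quotient.out (a * b)) (Quotient.out a * Quotient.out b) (by
      rw [QuotientGroup.mk_mul, hout, hout, hout])
    obtain ⟨d, hd, h2⟩ := hτ (Quotient.out a) (Quotient.out b)
    refine ⟨c * d, mul_ne_zero hc hd, ?_⟩
    show (τ (Quotient.out (a * b)) : Matrix κ κ K) = _
    rw [h1, h2, smul_smul]
  · intro y
    exact key y _ (hout _).symm

variable [Finite F] [Nonempty ι] [Fact r.Prime] (hY : C.Core Y) (habs : ActsAbsolutelyIrreducibly (matrixSet R))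

include hY habs

theorem Coord.Core.min (hrK : (r : K) ≠ 0) {τ : Y → GL κ K} (hτ : IsProj τ)
    (hs : ∀ y : Y, (y : GL ι F) ∈ scalars ι F → ∃ c : K, (τ y : Matrix κ κ K) = c • (1 : Matrix κ κ K))
    {x : R} (hx : (x : GL ι F) ∈ Y) (hne : ∀ c : K, (τ ⟨x, hx⟩ : Matrix κ κ K) ≠ c • (1 : Matrix κ κ K)) :
    r ^ k ∣ Fintype.card κ ∨ (Odd r ∧ r ^ (2 * k) - 1 ≤ Fintype.card κ) ∨
      (r = 2 ∧ 2 * (2 ^ (2 * k) - 1) ≤ Fintype.card κ * (Fintype.card κ - 1)) := by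
  obtain ⟨τ', h1, h2⟩ := exists_descent hτ hs
  refine (hY.aff habs).min hrK h1 (v₀ := C.φ x) ?_
  intro c hc
  rw [hY.aff_x habs x hx] at hc
  obtain ⟨d, -, h3⟩ := h2 ⟨x, hx⟩
  rw [hc, smul_smul] at h3
  exact hne _ h3

theorem Coord.Core.pow_le_card (hk : 1 ≤ k) (hrK : (r : K) ≠ 0) {τ : Y → GL κ K} (hτ : IsProj τ)
    (hs : ∀ y : Y, (y : GL ι F) ∈ scalars ι F → ∃ c : K, (τ y : Matrix κ κ K) = c • (1 : Matrix κ κ K))
    {x : R} (hx : (x : GL ι F) ∈ Y) (hne : ∀ c : K, (τ ⟨x, hx⟩ : Matrix κ κ K) ≠ c • (1 : Matrix κ κ K)) :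
    r ^ k ≤ Fintype.card κ := by
  obtain ⟨τ', h1, h2⟩ := exists_descent hτ hs
  refine (hY.aff habs).pow_le_card hk hrK h1 (v₀ := C.φ x) ?_
  intro c hc
  rw [hY.aff_x habs x hx] at hc
  obtain ⟨d, -, h3⟩ := h2 ⟨x, hx⟩
  rw [hc, smul_smul] at h3
  exact hne _ h3

/-- A homomorphism of `Y` to `GL κ K` trivial on scalars. -/
theorem Coord.Core.linear (hrK : (r : K) ≠ 0) (ρ : Y →* GL κ K)
    (hs : ∀ y : Y, (y : GL ι F) ∈ scalars ι F → ρ y = 1)
    {x : R} (hx : (x : GL ι F) ∈ Y) (hne : ρ ⟨x, hx⟩ ≠ 1) :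
    r ^ (2 * k) - 1 ≤ Fintype.card κ := by
  let ρ' : Y ⧸ (scalars ι F).subgroupOf Y →* GL κ K := QuotientGroup.lift _ ρ (fun y hy => hs y hy)
  refine (hY.aff habs).linear hrK ρ' (v₀ := C.φ x) ?_
  rw [hY.aff_x habs x hx]
  exact hne

end Core

end Cfsg.Agent.H920
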