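import Cfsg.Agent.H920.ExThree
import Cfsg.Agent.H920.FormUniq
import Cfsg.Agent.H876.SpGen
import Cfsg.Agent.TwoUniq.PSLRank

/-!
# Class 6 in the symplectic groups from the residual maximal subgroups (helper920)

`maximal_Sp_of_residual` : `R` of order `2 ^ (1 + 2 k)`, centre of order 2, `k ≥ 3`, `|F| = p` odd; the residual maximal
subgroups are assumed to have a simple quotient of 2-rank at most `2 k - 1` (`ExclRank`).
-/

set_option autoImplicit false

namespace Cfsg.Agent.H920

open Cfsg Cfsg.Geo Matrix Cfsg.Agent.ClassicalGeometry.SympBasic Cfsg.Agent.H888.C6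

section Std

variable {m : ℕ} {F : Type*} [Field F]

theorem isSymplecticForm_sympForm : IsSymplecticForm (sympForm m F) where
  bilinear := ⟨fun x y v => sympForm_add_left x y v, fun c x v => sympForm_smul_left c x v,
    fun v x y => sympForm_add_right v x y, fun c v x => sympForm_smul_right c v x⟩
  skew v w := sympForm_swap v w
  alternating v := sympForm_self v
  nondegenerate := by
    intro v hv
    constructor
    · by_contra h
      push Not at h
      exact hv (eq_zero_of_forall_sympForm_left fun x => h x)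
    · by_contra h
      push Not at h
      exact hv (eq_zero_of_forall_sympForm_right fun x => h x)

theorem exists_tv_Sp (hm : 0 < m) : ∃ t ∈ spGL m F, IsTv t := by
  let v : Fin m ⊕ Fin m → F := Pi.single (Sum.inl ⟨0, hm⟩) 1
  have hv : v ≠ 0 := by
    intro h
    have := congrFun h (Sum.inl ⟨0, hm⟩)
    simp [v] at this
  refine ⟨H876.tGL v 1, H876.tGL_mem v 1, v, Matrix.J (Fin m) F *ᵥ v, hv, ?_, ?_⟩
  · intro h
    apply hv
    apply eq_zero_of_forall_sympForm_left
    intro u
    rw [sympForm_def, h, dotProduct_zero]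
  · change sympTransvection m v 1 = _
    rw [sympTransvection_def, one_smul]

end Std

/-- The exclusion: 2-rank. -/
def ExclRank {ι : Type} [Fintype ι] [DecidableEq ι] {F : Type*} [Field F] (d : ℕ) (X : Subgroup (GL ι F)) : Prop :=
  ∃ P, IsResidualCore X P ∧ PRankLE 2 d (P ⧸ (scalars ι F).subgroupOf P)

theorem pRankLE_of_card {T : Type*} [Group T] [Finite T] {d : ℕ} (h : ¬ 2 ^ (d + 1) ∣ Nat.card T) : PRankLE 2 d T := by
  intro A _ hA
  by_contra hlt
  push Not at hlt
  apply h
  have hp : IsPGroup 2 A := fun a => ⟨1, by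
    apply Subtype.ext
    rw [pow_one, Subgroup.coe_pow, Subgroup.coe_one]
    exact hA a a.2⟩
  haveI : Fact (Nat.Prime 2) := ⟨Nat.prime_two⟩
  obtain ⟨j, hj⟩ := IsPGroup.iff_card.1 hp
  rw [hj] at hlt
  have h1 : d + 1 ≤ j := (Nat.pow_lt_pow_iff_right (by norm_num)).1 hlt
  calc 2 ^ (d + 1) ∣ 2 ^ j := pow_dvd_pow 2 h1
    _ = Nat.card A := hj.symm
    _ ∣ Nat.card T := Subgroup.card_subgroup_dvd_card A

section Main

variable {F : Type*} [Field F] {m : ℕ}

theorem subfield_eq_top [Fintype F] {p : ℕ} (hp : p.Prime) (hF : Fintype.card F = p) (F₀ : Subfield F) : F₀ = ⊤ := by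
  have h1 : Nat.card F₀.toAddSubgroup ∣ Nat.card F := AddSubgroup.card_addSubgroup_dvd_card _
  rw [Nat.card_eq_fintype_card (α := F), hF] at h1
  rcases (Nat.dvd_prime hp).1 h1 with h | h
  · exfalso
    have h2 : (⟨0, F₀.zero_mem⟩ : F₀.toAddSubgroup) = ⟨1, F₀.one_mem⟩ := by
      have := Nat.card_eq_one_iff_unique.1 h
      exact this.1.elim _ _
    exact zero_ne_one (congrArg Subtype.val h2)
  · have h2 : F₀.toAddSubgroup = ⊤ := by
      apply AddSubgroup.eq_top_of_card_eq
      rw [h, Nat.card_eq_fintype_card, hF]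
    ext x
    refine ⟨fun _ => Subfield.mem_top x, fun _ => ?_⟩
    have : x ∈ F₀.toAddSubgroup := by rw [h2]; trivial
    exact this

theorem ringEquiv_eq_refl [Fintype F] {p : ℕ} (hp : p.Prime) (hF : Fintype.card F = p) (σ : F ≃+* F) :
    σ = RingEquiv.refl F := by
  have h1 := subfield_eq_top hp hF ((σ : F →+* F).eqLocusField (RingHom.id F))
  ext x
  have h2 : x ∈ (σ : F →+* F).eqLocusField (RingHom.id F) := by rw [h1]; exact Subfield.mem_top x
  exact h2

/-- **Class 6 in `Sp`, minus (or plus) type, from the residual maximal subgroups.** -/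
theorem maximal_Sp_of_residual [Fintype F] {p k : ℕ} (hp : p.Prime) (hpo : Odd p) (hF : Fintype.card F = p)
    (hk : 3 ≤ k) {R : Subgroup (GL (Fin m ⊕ Fin m) F)} (hR : IsSymplecticTypeGroup 2 R)
    (habs : ActsAbsolutelyIrreducibly (matrixSet R)) (hRD : R ≤ spGL m F) (hcard : Nat.card R = 2 ^ (1 + 2 * k))
    (hZ : Nat.card (Subgroup.center R) = 2) (hsch : SchAll (Fin m ⊕ Fin m) F)
    (hres : ∀ X : Subgroup (GL (Fin m ⊕ Fin m) F), IsMaximalIn (spGL m F) X → InSymplecticResidualClass X →
      ExclRank (2 * k - 1) X) :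
    IsMaximalIn (spGL m F) (subgroupNormalizer R ⊓ spGL m F) := by
  classical
  have hchar : CharP F p := by
    obtain ⟨p', hp'⟩ := CharP.exists F
    haveI := hp'
    obtain ⟨n, hp'', hn⟩ := FiniteField.card F p'
    rw [hF] at hn
    have : p' = p := ((Nat.prime_dvd_prime_iff_eq hp'' hp).1 (by rw [hn]; exact dvd_pow_self _ n.2.ne'))
    rwa [this] at hp'
  have h2 : (2 : F) ≠ 0 := by
    intro h
    have h1 : ((2 : ℕ) : F) = 0 := by exact_mod_cast h
    have h3 := (CharP.cast_eq_zero_iff F p 2).1 h1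
    have h4 := (Nat.prime_dvd_prime_iff_eq hp Nat.prime_two).1 h3
    rw [h4] at hpo
    exact absurd hpo (by decide)
  have h8 : 8 ≤ 2 ^ k := by
    calc 8 = 2 ^ 3 := by norm_num
      _ ≤ 2 ^ k := Nat.pow_le_pow_right (by norm_num) hk
  -- the dimension
  have hmm : m ≠ 0 := by
    rintro rfl
    have h1 : Subsingleton (GL (Fin 0 ⊕ Fin 0) F) := ⟨fun a b => Units.ext (by ext i; exact i.elim Fin.elim0 Fin.elim0)⟩
    have h3 : Nat.card R = 1 := Nat.card_eq_one_iff_unique.2 ⟨inferInstance, ⟨1⟩⟩
    rw [h3] at hcard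
    have : 2 ^ 1 ≤ 2 ^ (1 + 2 * k) := Nat.pow_le_pow_right (by norm_num) (by omega)
    omega
  have hm0 : 0 < m := Nat.pos_of_ne_zero hmm
  have hne : Nonempty (Fin m ⊕ Fin m) := ⟨Sum.inl ⟨0, hm0⟩⟩
  obtain ⟨hdim, C, q, T⟩ := exists_TC h2 hR habs hcard hZ (by omega)
  have hpairs : PairsIn C q (spGL m F) := by
    intro a b ha hb g hg u v
    exact pairsIn_form T isSymplecticForm_sympForm.bilinear (fun x v w => hRD x.2 v w) ha hb hg u v
  obtain ⟨Y, hY, hYX, -⟩ := T.exists_Y hk hRD hpairs
  have hfin : Finite (GL (Fin m ⊕ Fin m) F) := inferInstance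
  refine isMaximalIn_of_maximal (lt_of_le_of_ne inf_le_right ?_) ?_
  · intro h
    obtain ⟨t, htK, ht'⟩ := exists_tv_Sp (F := F) hm0
    rw [← h] at htK
    exact C.false_of_transvection (by rw [hdim]; omega) habs ht' htK.1
  · intro X hX hNX
    have hYX' : Y ≤ X := (le_inf hY.norm hYX).trans hNX
    by_cases hXN : X ≤ subgroupNormalizer R
    · exact le_inf hXN hX.1.le
    · exfalso
      have hsc : ∀ z ∈ scalars (Fin m ⊕ Fin m) F, z ∈ X → z ∈ R := by
        intro z hz hzX
        obtain ⟨c, hc⟩ := (mem_scalars_iff _).1 hz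
        have h1 := hX.1.le hzX
        have h3 : ((c : F) * c) = 1 := by
          obtain ⟨⟨u, hu⟩, -⟩ := (isSymplecticForm_sympForm (m := m) (F := F)).nondegenerate
            (Pi.single (Sum.inl ⟨0, hm0⟩) 1) (by
              intro h
              have := congrFun h (Sum.inl ⟨0, hm0⟩)
              simp at this)
          have h4 : sympForm m F ((z : Matrix (Fin m ⊕ Fin m) (Fin m ⊕ Fin m) F) *ᵥ u)
              ((z : Matrix (Fin m ⊕ Fin m) (Fin m ⊕ Fin m) F) *ᵥ Pi.single (Sum.inl ⟨0, hm0⟩) 1) =
              sympForm m F u (Pi.single (Sum.inl ⟨0, hm0⟩) 1) := h1 u (Pi.single (Sum.inl ⟨0, hm0⟩) 1)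
          rw [hc, Matrix.smul_mulVec, Matrix.smul_mulVec, Matrix.one_mulVec, Matrix.one_mulVec, sympForm_smul_left,
            sympForm_smul_right, ← mul_assoc] at h4
          exact mul_right_cancel₀ hu (by rw [h4, one_mul])
        obtain ⟨w, hw, hw'⟩ : ∃ w ∈ R, (w : Matrix (Fin m ⊕ Fin m) (Fin m ⊕ Fin m) F) = -1 := by
          obtain ⟨z', c', hz', hc', hord⟩ := exists_scalar_of_center hR habs
          refine ⟨z', hz', ?_⟩
          rw [hZ] at hord
          have h5 : c' * c' = 1 := by rw [← pow_two, ← hord, pow_orderOf_eq_one]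
          rcases mul_self_eq_one_iff.1 h5 with h | h
          · rw [h, orderOf_one] at hord; omega
          · rw [hc', h, neg_smul, one_smul]
        rcases mul_self_eq_one_iff.1 h3 with h | h
        · have : z = 1 := Units.ext (by rw [hc, h, one_smul]; rfl)
          rw [this]; exact R.one_mem
        · have : z = w := Units.ext (by rw [hc, hw', h, neg_smul, one_smul])
          rw [this]; exact hw
      have hRp : IsPGroup 2 R := IsPGroup.of_card hcard
      obtain ⟨P, hP⟩ := exists_coreNS3 T hk hY habs hRp hdim hYX' hsc hXN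
      have hYP : Y ≤ P := H878.perfect_le_core hP hYX' hY.perfect (hsch P hP.simple hP.nonabelian)
      have hRP : R ≤ P := hY.le.trans hYP
      have hcore : IsResidualCore X P := hP.isResidualCore (fun F₀ hF₀ => absurd (subfield_eq_top hp hF F₀) hF₀)
      have hres' : InSymplecticResidualClass X := by
        refine ⟨P, hcore, ?_, ?_⟩
        · exact not_quadratic_of_symplectic h2 hP.absIrred isSymplecticForm_sympForm (by
            rintro _ ⟨x, hx, rfl⟩ u v
            exact hX.1.le (hP.le hx) u v)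
        · rintro ⟨σ, f, hf, -⟩
          exact hf.ne_refl (ringEquiv_eq_refl hp hF σ)
      obtain ⟨P', hP', hrank⟩ := hres X hX hres'
      obtain rfl := core_unique hcore hP'
      -- `R` modulo scalars
      let f : R →* P ⧸ (scalars (Fin m ⊕ Fin m) F).subgroupOf P := (QuotientGroup.mk' _).comp (Subgroup.inclusion hRP)
      have hf : ∀ x : R, f x = 1 ↔ C.φ x = 0 := by
        intro x
        rw [C.ker_iff]
        exact (QuotientGroup.eq_one_iff _).trans Subgroup.mem_subgroupOf
      have hcf : ∀ x y : R, f x = f y ↔ C.φ x = C.φ y := by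
        intro x y
        rw [← mul_inv_eq_one, ← map_inv, ← map_mul, hf, C.map_mul, φ_neg_eq]
        exact ⟨fun h => v2_eq_of_add h, fun h => by rw [h, v2_two]⟩
      have h1 := hrank f.range ⟨⟨by
          rintro ⟨_, x, rfl⟩ ⟨_, y, rfl⟩
          apply Subtype.ext
          change f x * f y = f y * f x
          rw [← map_mul, ← map_mul, hcf, C.map_mul, C.map_mul, add_comm]⟩⟩ (by
          rintro _ ⟨x, rfl⟩
          rw [← map_pow, hf, pow_two, C.map_mul, v2_two])
      have h3 : Nat.card f.range = 2 ^ (2 * k) := by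
        have e : f.range ≃ V2 k := by
          refine Equiv.ofBijective (fun z => C.φ z.2.choose) ⟨?_, ?_⟩
          · rintro ⟨z, hz⟩ ⟨z', hz'⟩ h
            apply Subtype.ext
            change z = z'
            exact hz.choose_spec.symm.trans (((hcf _ _).2 h).trans hz'.choose_spec)
          · intro v
            obtain ⟨x, rfl⟩ := C.surj v
            refine ⟨⟨f x, x, rfl⟩, ?_⟩
            exact (hcf _ _).1 (Exists.choose_spec (⟨x, rfl⟩ : f x ∈ f.range))
        rw [Nat.card_congr e, Nat.card_eq_fintype_card, card_v2]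
      rw [h3] at h1
      have := (Nat.pow_le_pow_iff_right (by norm_num)).1 h1
      omega

end Main

end Cfsg.Agent.H920
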