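import Cfsg.Agent.H915.SLWrap

/-!
# The maximal subgroups of `SL_9(q)` (S5829) from the general list `H915.sl_cases_of`
-/

set_option autoImplicit false

namespace Cfsg.Agent.H920

open Matrix Cfsg Cfsg.Geo

theorem sl9_cases_of {F : Type*} [Field F] [Fintype F] {H : Subgroup (GL (Fin 9) F)}
    (hH : IsMaximalIn (specialLinear (Fin 9) F) H)
    (hgen : (∃ M : Subgroup (GL (Fin 9) F), InLinearClass 9 F M ∧ H ≤ M) ∨
      InLinearResidualClass H) :
    (∃ W : Submodule F (Fin 9 → F), W ≠ ⊥ ∧ W ≠ ⊤ ∧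
      H = subspaceStabilizer W ⊓ specialLinear (Fin 9) F) ∨
    (5 ≤ Fintype.card F ∧ ∃ D : Fin 9 → Submodule F (Fin 9 → F), IsMDecomposition 1 D ∧
      H = decompositionStabilizer D ⊓ specialLinear (Fin 9) F) ∨
    (∃ D : Fin 3 → Submodule F (Fin 9 → F), IsMDecomposition 3 D ∧
      H = decompositionStabilizer D ⊓ specialLinear (Fin 9) F) ∨
    (∃ K : Subalgebra F (Matrix (Fin 9) (Fin 9) F), IsFieldSubalgebra 3 K ∧
      H = subalgebraNormalizer K ⊓ specialLinear (Fin 9) F) ∨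
    (∃ (F₀ : Subfield F) (r : ℕ) (P : GL (Fin 9) F), r.Prime ∧ Fintype.card F = Nat.card F₀ ^ r ∧
      H = subfieldSubgroup F₀ P ⊓ specialLinear (Fin 9) F) ∨
    ((∃ p : ℕ, p.Prime ∧ Fintype.card F = p ∧ (p % 3 = 1)) ∧ ∃ R : Subgroup (GL (Fin 9) F),
      IsLinearSymplecticTypeData 3 R ∧ H = subgroupNormalizer R ⊓ specialLinear (Fin 9) F) ∨
    (∃ (e : Fin 9 ≃ (Fin 2 → Fin 3)) (P : GL (Fin 9) F),
      H = tensorWreathSubgroup 3 2 e P ⊓ specialLinear (Fin 9) F) ∨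
    (Odd (Fintype.card F) ∧ ∃ Q : (Fin 9 → F) → F, IsNondegenerateQuadraticForm Q ∧
      H = quadSimilarityGroup Q ⊓ specialLinear (Fin 9) F) ∨
    (∃ (σ : F ≃+* F) (f : (Fin 9 → F) → (Fin 9 → F) → F), IsUnitaryForm σ f ∧
      H = similarityGroup f ⊓ specialLinear (Fin 9) F) ∨
    InLinearResidualClass H := by
  rcases H915.sl_cases_of (by norm_num) hH hgen with h | ⟨t, m, D, htm, hD, hm1, hm2, heq⟩ |
    ⟨r, K, hr, hdvd, hK, heq⟩ | ⟨n₁, n₂, e, P, h2, h12, h9, -, heq⟩ | h |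
    ⟨r, k, p, e, R, hR, hr, hro, heo, hk, h9, hrp, hmin, hZ, hc, heq⟩ |
    ⟨k, R, hR, h9, -⟩ | ⟨m, t, e, P, hm, ht, h9, heq⟩ | ⟨f, hf, hev, -⟩ | h | h | h
  · exact Or.inl h
  · have h1 : t ∣ 9 := ⟨m, htm.symm⟩
    have h2 := hD.two_le
    have h3 : t ≤ 9 := Nat.le_of_dvd (by norm_num) h1
    obtain ⟨rfl, rfl⟩ | ⟨rfl, rfl⟩ : (t = 9 ∧ m = 1) ∨ (t = 3 ∧ m = 3) := by
      interval_cases t <;> omega
    · exact Or.inr (Or.inl ⟨hm1 rfl, D, hD, heq⟩)
    · exact Or.inr (Or.inr (Or.inl ⟨D, hD, heq⟩))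
  · have h3 : r = 3 := by
      have : r ∣ 3 ^ 2 := by simpa using hdvd
      exact (Nat.prime_dvd_prime_iff_eq hr Nat.prime_three).1 (hr.dvd_of_dvd_pow this)
    subst h3
    exact Or.inr (Or.inr (Or.inr (Or.inl ⟨K, hK, heq⟩)))
  · exfalso
    have h1 : n₁ ∣ 9 := ⟨n₂, h9.symm⟩
    have h3 : n₁ ≤ 9 := Nat.le_of_dvd (by norm_num) h1
    interval_cases n₁ <;> omega
  · exact Or.inr (Or.inr (Or.inr (Or.inr (Or.inl h))))
  · have h3 : r = 3 := by
      have h4 : r ∣ 3 ^ 2 := by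
        have : r ∣ 9 := by rw [h9]; exact dvd_pow_self r (by omega)
        simpa using this
      exact (Nat.prime_dvd_prime_iff_eq hr Nat.prime_three).1 (hr.dvd_of_dvd_pow h4)
    subst h3
    refine Or.inr (Or.inr (Or.inr (Or.inr (Or.inr (Or.inl ⟨?_, R, hR, heq⟩)))))
    obtain ⟨hp, -, hcard, hdvd, hmin⟩ := hmin
    have hp3 : ¬ 3 ∣ p := fun h => hrp ((Nat.prime_dvd_prime_iff_eq Nat.prime_three hp).1 h)
    have hsq : 3 ∣ p ^ 2 - 1 := by
      have h1 : p % 3 = 1 ∨ p % 3 = 2 := by omega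
      have h2 : p ^ 2 % 3 = 1 := by
        rw [Nat.pow_mod]
        rcases h1 with h | h <;> rw [h]
      have h3 : 0 < p ^ 2 := pow_pos hp.pos 2
      omega
    have he : e = 1 := by
      by_contra hne
      obtain ⟨j, rfl⟩ := heo
      exact hmin 2 (by norm_num) (by omega) hsq
    subst he
    rw [pow_one] at hcard hdvd
    have := hp.two_le
    exact ⟨p, hp, hcard, by omega⟩
  · exfalso
    have h1 : k < 4 := by
      by_contra h
      have := Nat.pow_le_pow_right (n := 2) (by norm_num) (not_lt.1 h)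
      omega
    interval_cases k <;> omega
  · have h1 : t < 3 := by
      by_contra h
      have h3 := Nat.pow_le_pow_right (n := m) (by omega) (not_lt.1 h)
      have h4 : 3 ^ 3 ≤ m ^ 3 := Nat.pow_le_pow_left hm 3
      omega
    have h2 : t = 2 := by omega
    subst h2
    have h3 : m = 3 := by nlinarith
    subst h3
    exact Or.inr (Or.inr (Or.inr (Or.inr (Or.inr (Or.inr (Or.inl ⟨e, P, heq⟩))))))
  · exact absurd hev (by decide)
  · exact Or.inr (Or.inr (Or.inr (Or.inr (Or.inr (Or.inr (Or.inr (Or.inr (Or.inl h))))))))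
  · exact Or.inr (Or.inr (Or.inr (Or.inr (Or.inr (Or.inr (Or.inr (Or.inl h)))))))
  · exact Or.inr (Or.inr (Or.inr (Or.inr (Or.inr (Or.inr (Or.inr (Or.inr (Or.inr h))))))))

end Cfsg.Agent.H920
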